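import Cfsg.Agent.H669.TensExt
import Cfsg.Agent.H672.Over

/-!
# Characters over a non-abelian minimal normal subgroup (helper800)

Coordinates as in `OnanScott.exists_coordinates`.

* `exists_tens` : tensor induction of a character of a quotient of `N_Y(T o)` whose restriction to `T o` is irreducible;
* `tens_degree` : its degree is `ψ(1) ^ m`;
* `exists_pow_dvd` : `Y` has a character degree divisible by `d ^ m`, for each character degree `d` of `T o`.
-/

set_option autoImplicit false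

namespace Cfsg.Agent.H800.AN

open Cfsg Cfsg.Agent.Characters.Core Cfsg.Agent.H713 Cfsg.Agent.H669.TensExt

universe u v

section

variable {Y : Type u} [Group Y] {m : ℕ} {W : Subgroup Y} {T : Fin m → Subgroup Y}
  (e : W ≃* (∀ i, T i))

/-- **Tensor induction of a character of a quotient of the normalizer of a factor.** -/
theorem exists_tens [Finite Y] (hTinj : Function.Injective T) (hTN : ∀ i, T i ≤ W)
    (hTn : ∀ i, W ≤ Subgroup.normalizer (T i : Set Y))
    (hconj : ∀ (g : Y) i, ∃ j, T j = (T i).map (MulAut.conj g).toMonoidHom)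
    (he : ∀ i (t : T i), ((e.symm (Pi.mulSingle i t) : W) : Y) = t)
    (hc : ∀ (n : W) i, e n i = 1 ↔ ∀ t ∈ T i, Commute (n : Y) t)
    (o : Fin m) (g : Fin m → Y) (hg : ∀ i, T i = (T o).map (MulAut.conj (g i)).toMonoidHom)
    {A : Type v} [Group A] (F : Subgroup.normalizer (T o : Set Y) →* A)
    (hF : ∀ c : Subgroup.normalizer (T o : Set Y), (∀ t ∈ T o, Commute (c : Y) t) → F c = 1)
    {ψ : A → ℂ} (hψ : IsCharacter A ψ)
    (hirr : IsIrrCharacter (T o) fun t => ψ (F ⟨t, Subgroup.le_normalizer t.2⟩)) :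
    ∃ χ : Y → ℂ, IsIrrCharacter Y χ ∧
      ∀ n : W, χ n = ∏ i, ψ (F ⟨(conjIso (g i) (hg i)).symm (e n i), Subgroup.le_normalizer (Subtype.mem _)⟩) := by
  classical
  choose f hf using hconj
  -- the permutation action
  have hf1 : ∀ i, f 1 i = i := by
    intro i
    apply hTinj
    rw [hf, Cfsg.Agent.Lib.MinNormal.map_conj_one]
  have hf2 : ∀ x y i, f (x * y) i = f x (f y i) := by
    intro x y i
    apply hTinj
    rw [hf, hf x, hf y, Cfsg.Agent.Lib.MinNormal.map_conj_map_conj]
  let act : MulAction Y (Fin m) :=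
    { smul := f
      one_smul := hf1
      mul_smul := hf2 }
  let π : Y →* Equiv.Perm (Fin m) := MulAction.toPermHom Y (Fin m)
  have hπ : ∀ x i, π x i = f x i := fun _ _ => rfl
  -- the cocycle
  have hmem : ∀ x i, (g (f x i))⁻¹ * x * g i ∈ Subgroup.normalizer (T o : Set Y) := by
    intro x i
    rw [Subgroup.mem_normalizer_iff_map_conj_eq]
    have h1 := hf x i
    rw [hg (f x i), hg i, Cfsg.Agent.Lib.MinNormal.map_conj_map_conj] at h1
    have h2 := congrArg (fun S : Subgroup Y => S.map (MulAut.conj (g (f x i))⁻¹).toMonoidHom) h1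
    beta_reduce at h2
    rw [Cfsg.Agent.Lib.MinNormal.map_conj_map_conj, Cfsg.Agent.Lib.MinNormal.map_conj_map_conj, inv_mul_cancel,
      Cfsg.Agent.Lib.MinNormal.map_conj_one] at h2
    rw [mul_assoc]
    exact h2.symm
  let a : Y → Fin m → A := fun x i => F ⟨(g (f x i))⁻¹ * x * g i, hmem x i⟩
  have ha : ∀ x y i, a (x * y) i = a x (π y i) * a y i := by
    intro x y i
    change F _ = F _ * F _
    rw [← map_mul]
    congr 1
    apply Subtype.ext
    change (g (f (x * y) i))⁻¹ * (x * y) * g i = ((g (f x (f y i)))⁻¹ * x * g (f y i)) * ((g (f y i))⁻¹ * y * g i)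
    rw [hf2]
    group
  obtain ⟨V, _, _, _, ρ, hρ⟩ := exists_tensor π a ha hψ
  -- values on `W`
  have hfN : ∀ (n : W) i, f n i = i := by
    intro n i
    apply hTinj
    rw [hf]
    exact Subgroup.mem_normalizer_iff_map_conj_eq.1 (hTn i n.2)
  have hπN : ∀ n : W, π n = 1 := by
    intro n
    ext i
    rw [hπ, hfN]
    rfl
  have haN : ∀ (n : W) i, a n i =
      F ⟨(conjIso (g i) (hg i)).symm (e n i), Subgroup.le_normalizer (Subtype.mem _)⟩ := by
    intro n i
    have h6 : g i * (((conjIso (g i) (hg i)).symm (e n i) : T o) : Y) * (g i)⁻¹ = (e n i : Y) := by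
      have := congrArg (Subtype.val : T i → Y) ((conjIso (g i) (hg i)).apply_symm_apply (e n i))
      rwa [conjIso_apply] at this
    set s : T o := (conjIso (g i) (hg i)).symm (e n i) with hs
    have h1 : ∀ u : T i, Commute ((e n i : Y)⁻¹ * (n : Y)) u := by
      intro u
      exact (hc ((⟨e n i, hTN i (e n i).2⟩ : W)⁻¹ * n) i).1 (by
        have h1 : e (⟨e n i, hTN i (e n i).2⟩ : W) = Pi.mulSingle i (e n i) := by
          apply e.symm.injective
          rw [MulEquiv.symm_apply_apply]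
          exact Subtype.ext (he i (e n i)).symm
        rw [map_mul, map_inv, h1, Pi.mul_apply, Pi.inv_apply, Pi.mulSingle_eq_same]
        simp) u u.2
    have h2 : (g (f n i))⁻¹ * (n : Y) * g i = (s : Y) * ((s : Y)⁻¹ * ((g (f n i))⁻¹ * (n : Y) * g i)) := by group
    have h3 : ∀ t ∈ T o, Commute ((s : Y)⁻¹ * ((g (f n i))⁻¹ * (n : Y) * g i)) t := by
      intro t ht
      have h4 := h1 ⟨g i * t * (g i)⁻¹, by rw [hg i]; exact ⟨t, ht, rfl⟩⟩
      have h5 : (s : Y)⁻¹ * ((g (f n i))⁻¹ * (n : Y) * g i) =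
          MulAut.conj (g i)⁻¹ ((e n i : Y)⁻¹ * (n : Y)) := by
        rw [hfN, MulAut.conj_apply, ← h6]
        group
      have h7 : t = MulAut.conj (g i)⁻¹ (g i * t * (g i)⁻¹) := by
        rw [MulAut.conj_apply]
        group
      rw [h5, h7]
      exact h4.map (MulAut.conj (g i)⁻¹)
    have hmc : (s : Y)⁻¹ * ((g (f n i))⁻¹ * (n : Y) * g i) ∈ Subgroup.normalizer (T o : Set Y) :=
      mul_mem (inv_mem (Subgroup.le_normalizer s.2)) (hmem n i)
    change F ⟨(g (f n i))⁻¹ * (n : Y) * g i, hmem n i⟩ = _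
    have h8 : (⟨(g (f n i))⁻¹ * (n : Y) * g i, hmem n i⟩ : Subgroup.normalizer (T o : Set Y)) =
        ⟨s, Subgroup.le_normalizer s.2⟩ * ⟨_, hmc⟩ := Subtype.ext h2
    rw [h8, map_mul, hF ⟨_, hmc⟩ h3, mul_one]
  have hres : ∀ n : W, ρ.character n = ∏ i, ψ (F ⟨(conjIso (g i) (hg i)).symm (e n i),
      Subgroup.le_normalizer (Subtype.mem _)⟩) := by
    intro n
    rw [hρ n (hπN n)]
    exact Finset.prod_congr rfl fun i _ => by rw [haN]
  refine ⟨ρ.character, isIrrCharacter_of_rep ρ ?_, hres⟩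
  apply Cfsg.Agent.CharDeep.LinearChar.isIrreducible_of_comp W.subtype
  apply isIrreducible_of_isIrrCharacter
  have h1 := isIrr_pi (ι := Fin m) hirr
  let E : W ≃* (Fin m → T o) := e.trans (MulEquiv.piCongrRight fun i => (conjIso (g i) (hg i)).symm)
  have h2 := isIrr_comp (E : W →* (Fin m → T o)) E.surjective h1
  convert h2 using 1
  funext n
  exact hres n

theorem charDegree_of_eq' {G : Type v} [Group G] {χ : G → ℂ} {n : ℕ} (h : χ 1 = n) : charDegree χ = n := by
  unfold charDegree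
  rw [h]
  simp

/-- **Powers of the degrees of the extendible characters.** -/
theorem pow_mem_charDegrees [Finite Y] (hTinj : Function.Injective T) (hTN : ∀ i, T i ≤ W)
    (hTn : ∀ i, W ≤ Subgroup.normalizer (T i : Set Y))
    (hconj : ∀ (g : Y) i, ∃ j, T j = (T i).map (MulAut.conj g).toMonoidHom)
    (he : ∀ i (t : T i), ((e.symm (Pi.mulSingle i t) : W) : Y) = t)
    (hc : ∀ (n : W) i, e n i = 1 ↔ ∀ t ∈ T i, Commute (n : Y) t)
    (o : Fin m) (htrans : ∀ i, ∃ g : Y, T i = (T o).map (MulAut.conj g).toMonoidHom)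
    {A : Type v} [Group A] (F : Subgroup.normalizer (T o : Set Y) →* A)
    (hF : ∀ c : Subgroup.normalizer (T o : Set Y), (∀ t ∈ T o, Commute (c : Y) t) → F c = 1)
    {ψ : A → ℂ} (hψ : IsCharacter A ψ)
    (hirr : IsIrrCharacter (T o) fun t => ψ (F ⟨t, Subgroup.le_normalizer t.2⟩)) {d : ℕ} (hd : ψ 1 = d) :
    d ^ m ∈ charDegrees Y := by
  choose g hg using htrans
  obtain ⟨χ, hχ, hχW⟩ := exists_tens e hTinj hTN hTn hconj he hc o g hg F hF hψ hirr
  refine ⟨⟨χ, hχ⟩, charDegree_of_eq' ?_⟩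
  have h1 := hχW 1
  have h2 : ∀ i, (⟨(conjIso (g i) (hg i)).symm (e 1 i), Subgroup.le_normalizer (Subtype.mem _)⟩ :
      Subgroup.normalizer (T o : Set Y)) = 1 := by
    intro i
    apply Subtype.ext
    change (((conjIso (g i) (hg i)).symm (e 1 i) : T o) : Y) = 1
    rw [map_one, Pi.one_apply, map_one]
    rfl
  rw [Finset.prod_congr rfl fun i _ => by rw [h2 i, map_one, hd], Finset.prod_const, Finset.card_univ,
    Fintype.card_fin] at h1
  rw [Subgroup.coe_one] at h1
  change χ 1 = _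
  rw [h1]
  push_cast
  rfl

include e in
/-- **Powers of the degrees of the factor.** -/
theorem exists_pow_dvd [Finite Y] [W.Normal] (o : Fin m)
    (htrans : ∀ i, ∃ g : Y, T i = (T o).map (MulAut.conj g).toMonoidHom) {d : ℕ} (hd : d ∈ charDegrees (T o)) :
    ∃ b ∈ charDegrees Y, d ^ m ∣ b := by
  classical
  choose g hg using htrans
  obtain ⟨β, rfl⟩ := hd
  let E : W ≃* (Fin m → T o) := e.trans (MulEquiv.piCongrRight fun i => (conjIso (g i) (hg i)).symm)
  have h1 := isIrr_pi (ι := Fin m) β.2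
  have h2 := isIrr_comp (E : W →* (Fin m → T o)) E.surjective h1
  obtain ⟨n, hn⟩ := isCharacter_apply_one (isIrr_isCharacter β.2)
  have h3 : charDegree (β : T o → ℂ) = n := charDegree_of_eq' hn
  obtain ⟨χ, hχ, ho⟩ := Cfsg.Agent.H672.exists_over_subtype W h2
  have h4 := (Cfsg.Agent.H672.charDegree_dvd_of_over W hχ h2 ho).1
  refine ⟨_, ⟨⟨χ, hχ⟩, rfl⟩, ?_⟩
  rw [h3]
  convert h4 using 1
  symm
  apply charDegree_of_eq'
  change ∏ i, (β : T o → ℂ) (E 1 i) = _
  rw [map_one]
  rw [Finset.prod_congr rfl fun i _ => by rw [Pi.one_apply, hn], Finset.prod_const, Finset.card_univ,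
    Fintype.card_fin]
  push_cast
  rfl

end

end Cfsg.Agent.H800.AN
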